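import Mathlib
import Cfsg.Agent.Base
import Cfsg.Agent.Lib.Golay.Mathieu
import Cfsg.Agent.Lib.Spor55.GolayCoset

/-!
Invariant subspaces of the permutation module of the length-24 code group.
-/

set_option autoImplicit false

namespace H9.Gol

open Cfsg H15
open scoped Pointwise

theorem act_wordOf (σ : Equiv.Perm GolayPt) (s : Finset GolayPt) :
    (fun p => wordOf s (σ.symm p)) = wordOf (σ • s) := by
  funext p
  simp only [wordOf, mem_smul_finset_iff]
  rfl

theorem wordOf_compl (s : Finset GolayPt) : wordOf sᶜ = wordOf s + 1 := by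
  funext p
  simp only [wordOf, Finset.mem_compl, Pi.add_apply, Pi.one_apply]
  by_cases h : p ∈ s
  · simp only [h, not_true, if_true, if_false]; decide
  · simp [h]

theorem sd_empty {α : Type*} [DecidableEq α] (s : Finset α) : symmDiff s ∅ = s := symmDiff_bot s

theorem empty_sd {α : Type*} [DecidableEq α] (s : Finset α) : symmDiff ∅ s = s := bot_symmDiff s

theorem sd_id1 {α : Type*} [DecidableEq α] (s t a x : Finset α) :
    symmDiff (symmDiff (symmDiff s t) (symmDiff a (symmDiff t x))) x = symmDiff s a := by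
  ext p
  simp only [Finset.mem_symmDiff]
  tauto

theorem sd_id2 {α : Type*} [DecidableEq α] (c d x : Finset α) :
    symmDiff (symmDiff c x) (symmDiff d x) = symmDiff c d := by
  ext p
  simp only [Finset.mem_symmDiff]
  tauto

theorem sd_id3 {α : Type*} [DecidableEq α] (a b c d : Finset α) :
    symmDiff (symmDiff a b) (symmDiff c d) = symmDiff (symmDiff c a) (symmDiff d b) := by
  ext p
  simp only [Finset.mem_symmDiff]
  tauto

theorem sd_id4 {α : Type*} [DecidableEq α] (a b c d : Finset α) :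
    symmDiff (symmDiff a b) (symmDiff (symmDiff a c) (symmDiff b d)) = symmDiff c d := by
  ext p
  simp only [Finset.mem_symmDiff]
  tauto

theorem sd_id5 {α : Type*} [DecidableEq α] (u : Finset α) {a b d : α} (h : b ≠ d) :
    symmDiff (symmDiff u {a, b}) (symmDiff u {a, d}) = {b, d} ∨ a = b ∨ a = d := by
  by_cases h1 : a = b
  · tauto
  by_cases h2 : a = d
  · tauto
  left
  ext p
  simp only [Finset.mem_symmDiff, Finset.mem_insert, Finset.mem_singleton]
  grind

/-- invariant families of sets, closed under symmetric difference -/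
structure Fam (F : Set (Finset GolayPt)) : Prop where
  sd : ∀ s ∈ F, ∀ t ∈ F, symmDiff s t ∈ F
  sm : ∀ g ∈ M24, ∀ s ∈ F, g • s ∈ F

theorem fam_of (W : Submodule (ZMod 2) (GolayPt → ZMod 2))
    (hW : ∀ σ ∈ M24, ∀ w ∈ W, (fun p => w (σ.symm p)) ∈ W) : Fam {s | wordOf s ∈ W} :=
  ⟨fun s hs t ht => by
      show wordOf _ ∈ W
      rw [wordOf_symmDiff]; exact W.add_mem hs ht,
    fun g hg s hs => by
      show wordOf _ ∈ W
      rw [← act_wordOf]; exact hW g hg _ hs⟩

theorem Fam.code_of_octad {F : Set (Finset GolayPt)} (h : Fam F) {o : Finset GolayPt}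
    (ho : o ∈ octads) (hF : o ∈ F) : ∀ s ∈ CodeSets, s ∈ F := by
  refine codeSets_induction ?_ (fun s t a b => h.sd s a t b) fun b hb => ?_
  · have := h.sd o hF o hF
    rwa [symmDiff_self] at this
  · obtain ⟨g, hg, e⟩ := M24_trans_octads ho (basisL_octad b hb)
    exact e ▸ h.sm g hg o hF

theorem Fam.code_of_mem {F : Set (Finset GolayPt)} (h : Fam F) {c : Finset GolayPt}
    (hc : c ∈ CodeSets) (h0 : c ≠ ∅) (h1 : c ≠ Finset.univ) (hF : c ∈ F) :
    ∀ s ∈ CodeSets, s ∈ F := by
  rcases card_of_mem_codeSets hc with e | e | e | e | e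
  · exact absurd (Finset.card_eq_zero.1 e) h0
  · exact h.code_of_octad (mem_octads_iff.2 ⟨hc, e⟩) hF
  · have hd : c ∈ dodecads := mem_dodecads_iff.2 ⟨hc, e⟩
    obtain ⟨g, hg, e1⟩ := M24_trans_dodecads hd dod1_mem
    obtain ⟨g', hg', e2⟩ := M24_trans_dodecads hd
      (ofMask_mem_dodecads (m := 340831) (by decide +kernel))
    have := h.sd _ (e1 ▸ h.sm g hg c hF) _ (e2 ▸ h.sm g' hg' c hF)
    rw [← ofMask_xor'] at this
    exact h.code_of_octad (ofMask_mem_octads (by decide +kernel)) this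
  · have hd : cᶜ ∈ octads := mem_octads_iff.2 ⟨compl_mem_codeSets hc, by
      rw [Finset.card_compl, card_golayPt, e]⟩
    obtain ⟨g, hg, e1⟩ := M24_trans_octads hd oct0_mem
    obtain ⟨g', hg', e2⟩ := M24_trans_octads hd
      (ofMask_mem_octads (m := 5279) (by decide +kernel))
    rw [smul_compl] at e1 e2
    have := h.sd _ (h.sm g hg c hF) _ (h.sm g' hg' c hF)
    rw [← compl_symmDiff_compl, e1, e2, ← ofMask_xor'] at this
    exact h.code_of_octad (ofMask_mem_octads (by decide +kernel)) this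
  · exact absurd (Finset.eq_univ_of_card c (by rw [e, card_golayPt])) h1

theorem exists_not_mem_of_card {s : Finset GolayPt} (h : s.card < 24) : ∃ p, p ∉ s := by
  by_contra hh
  push Not at hh
  rw [Finset.eq_univ_of_forall hh, Finset.card_univ, card_golayPt] at h
  omega

theorem exists_mem_not_mem {s t : Finset GolayPt} (h : t.card < s.card) : ∃ p ∈ s, p ∉ t := by
  by_contra hh
  push Not at hh
  have := Finset.card_le_card (show s ⊆ t from hh)
  omega

theorem smul_pair (g : Equiv.Perm GolayPt) (a b : GolayPt) :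
    g • ({a, b} : Finset GolayPt) = {g a, g b} := by
  ext p
  simp only [mem_smul_finset_iff, Finset.mem_insert, Finset.mem_singleton,
    Equiv.Perm.inv_def, Equiv.symm_apply_eq]

/-- a family containing a set outside the code contains a code set plus a pair -/
theorem Fam.exists_pair {F : Set (Finset GolayPt)} (h : Fam F) {s : Finset GolayPt}
    (hs : s ∉ CodeSets) (hF : s ∈ F) :
    ∃ c ∈ CodeSets, ∃ a b : GolayPt, a ≠ b ∧ symmDiff c {a, b} ∈ F := by
  obtain ⟨t, ht, hc⟩ := H55.Golay.exists_small s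
  have t0 : t.Nonempty := by
    rw [Finset.nonempty_iff_ne_empty]
    rintro rfl
    exact hs (by rwa [sd_empty] at hc)
  obtain ⟨a, ha⟩ := t0
  obtain ⟨b, hb⟩ := exists_not_mem_of_card (s := t) (by omega)
  have hab : a ≠ b := fun e => hb (e ▸ ha)
  obtain ⟨g, hg, e⟩ := M24_trans_sets (s := t) (t := symmDiff t {a, b}) (by omega) (by
    have := card_symmDiff_add t {a, b}
    rw [Finset.card_pair hab, show t ∩ {a, b} = {a} by
      ext p
      simp only [Finset.mem_inter, Finset.mem_insert, Finset.mem_singleton]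
      constructor
      · rintro ⟨h1, rfl | rfl⟩
        · rfl
        · exact absurd h1 hb
      · rintro rfl; exact ⟨ha, Or.inl rfl⟩, Finset.card_singleton] at this
    omega)
  refine ⟨_, symmDiff_mem_codeSets hc (smul_mem_codeSets hg hc), a, b, hab, ?_⟩
  rw [smul_symmDiff, e, sd_id1]
  exact h.sd _ hF _ (h.sm g hg _ hF)

/-- a family containing a set outside the code contains every pair -/
theorem Fam.pair_mem {F : Set (Finset GolayPt)} (h : Fam F) {s : Finset GolayPt}
    (hs : s ∉ CodeSets) (hF : s ∈ F) {x y : GolayPt} (hxy : x ≠ y) :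
    ({x, y} : Finset GolayPt) ∈ F := by
  obtain ⟨c, hc, a, b, hab, hm⟩ := h.exists_pair hs hF
  suffices H : ∃ a b : GolayPt, a ≠ b ∧ ({a, b} : Finset GolayPt) ∈ F by
    obtain ⟨a, b, hab, hm⟩ := H
    obtain ⟨g, hg, rfl, rfl⟩ := M24_trans2 hab hxy
    exact smul_pair g a b ▸ h.sm g hg _ hm
  by_cases h0 : c = ∅
  · exact ⟨a, b, hab, by rwa [h0, empty_sd] at hm⟩
  by_cases h1 : c = Finset.univ
  · obtain ⟨d, hd⟩ := exists_not_mem_of_card (s := {a, b}) (by rw [Finset.card_pair hab]; omega)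
    simp only [Finset.mem_insert, Finset.mem_singleton, not_or] at hd
    obtain ⟨g, hg, e1, e2⟩ := M24_trans2 hab (Ne.symm hd.1)
    refine ⟨b, d, Ne.symm hd.2, ?_⟩
    have := h.sd _ hm _ (h.sm g hg _ hm)
    rw [smul_symmDiff, smul_pair, e1, e2, h1, Finset.smul_finset_univ] at this
    rcases sd_id5 (Finset.univ : Finset GolayPt) (a := a) (Ne.symm hd.2) with e | e | e
    · rwa [e] at this
    · exact absurd e hab
    · exact absurd e.symm hd.1
  have c8 : 8 ≤ c.card ∧ c.card ≤ 16 := by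
    rcases card_of_mem_codeSets hc with e | e | e | e | e
    · exact absurd (Finset.card_eq_zero.1 e) h0
    · omega
    · omega
    · omega
    · exact absurd (Finset.eq_univ_of_card c (by rw [e, card_golayPt])) h1
  obtain ⟨u, hu, hu'⟩ := exists_mem_not_mem (s := c) (t := {a, b}) (by
    rw [Finset.card_pair hab]; omega)
  obtain ⟨v, hv, hv'⟩ := exists_mem_not_mem (s := c) (t := insert u {a, b}) (by
    rw [Finset.card_insert_of_notMem hu', Finset.card_pair hab]; omega)
  obtain ⟨w, hw⟩ := exists_not_mem_of_card (s := c ∪ {a, b}) (by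
    have := Finset.card_union_le c {a, b}
    rw [Finset.card_pair hab] at this; omega)
  simp only [Finset.mem_insert, Finset.mem_singleton, not_or, Finset.mem_union] at hu' hv' hw
  obtain ⟨g, hg, e1, e2, e3, e4⟩ := M24_trans4 hab (Ne.symm hu'.1) (Ne.symm hv'.2.1)
    (Ne.symm hu'.2) (Ne.symm hv'.2.2) (Ne.symm hv'.1) hab (Ne.symm hu'.1) (Ne.symm hw.2.1)
    (Ne.symm hu'.2) (Ne.symm hw.2.2) (fun e : u = w => hw.1 (e ▸ hu))
  have hm2 : symmDiff c (g • c) ∈ F := by
    have := h.sd _ hm _ (h.sm g hg _ hm)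
    rwa [smul_symmDiff, smul_pair, e1, e2, sd_id2] at this
  have hu2 : u ∈ g • c := e3 ▸ (apply_mem_smul_iff g c u).2 hu
  have hw2 : w ∈ g • c := e4 ▸ (apply_mem_smul_iff g c v).2 hv
  have all := h.code_of_mem (symmDiff_mem_codeSets hc (smul_mem_codeSets hg hc))
    (fun e => by
      have : w ∈ symmDiff c (g • c) := Finset.mem_symmDiff.2 (Or.inr ⟨hw2, hw.1⟩)
      rw [e] at this; simp at this)
    (fun e => by
      have : u ∈ symmDiff c (g • c) := e ▸ Finset.mem_univ u
      rw [Finset.mem_symmDiff] at this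
      tauto) hm2
  refine ⟨a, b, hab, ?_⟩
  have := h.sd _ (all c hc) _ hm
  rwa [symmDiff_symmDiff_cancel_left] at this

theorem even_mem {F : Set (Finset GolayPt)} (sd : ∀ s ∈ F, ∀ t ∈ F, symmDiff s t ∈ F)
    (h0 : ∅ ∈ F) (h2 : ∀ x y : GolayPt, x ≠ y → ({x, y} : Finset GolayPt) ∈ F) :
    ∀ (n : ℕ) (s : Finset GolayPt), s.card = 2 * n → s ∈ F
  | 0, s, h => by rwa [Finset.card_eq_zero.1 h]
  | n + 1, s, h => by
    obtain ⟨x, hx, y, hy, hxy⟩ := Finset.one_lt_card.1 (show 1 < s.card by omega)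
    have e := card_symmDiff_add s {x, y}
    rw [Finset.inter_eq_right.2 (by
      intro p hp
      simp only [Finset.mem_insert, Finset.mem_singleton] at hp
      rcases hp with rfl | rfl <;> assumption), Finset.card_pair hxy] at e
    have := sd _ (even_mem sd h0 h2 n (symmDiff s {x, y}) (by omega)) _ (h2 x y hxy)
    rwa [symmDiff_symmDiff_cancel_right] at this

theorem sum_wordOf (s : Finset GolayPt) : ∑ p, wordOf s p = (s.card : ZMod 2) := by
  simp [wordOf]

theorem wordOf_mem_span_one {s : Finset GolayPt} :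
    wordOf s ∈ Submodule.span (ZMod 2) {(fun _ => 1 : GolayPt → ZMod 2)} ↔
      s = ∅ ∨ s = Finset.univ := by
  rw [Submodule.mem_span_singleton]
  constructor
  · rintro ⟨a, e⟩
    have : a = 0 ∨ a = 1 := by clear e; revert a; decide
    rcases this with rfl | rfl
    · left; apply wordOf_injective; rw [wordOf_empty, ← e, zero_smul]
    · right; apply wordOf_injective; rw [wordOf_univ, ← e, one_smul]; rfl
  · rintro (rfl | rfl)
    · exact ⟨0, by rw [wordOf_empty, zero_smul]⟩
    · exact ⟨1, by rw [wordOf_univ, one_smul]; rfl⟩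

/-- invariant subspaces of the code -/
theorem le_code_cases (W : Submodule (ZMod 2) (GolayPt → ZMod 2))
    (hW : ∀ σ ∈ M24, ∀ w ∈ W, (fun p => w (σ.symm p)) ∈ W) (hle : W ≤ golayCode) :
    W = ⊥ ∨ W = Submodule.span (ZMod 2) {fun _ => (1 : ZMod 2)} ∨ W = golayCode := by
  by_cases h : ∃ w ∈ W, support₂ w ≠ ∅ ∧ support₂ w ≠ Finset.univ
  · obtain ⟨w, hw, h0, h1⟩ := h
    right; right
    refine le_antisymm hle fun v hv => ?_
    have := (fam_of W hW).code_of_mem (support₂_mem_codeSets_iff.2 (hle hw)) h0 h1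
      (by show wordOf _ ∈ W; rwa [wordOf_support₂]) _ (support₂_mem_codeSets_iff.2 hv)
    rwa [Set.mem_ofPred_eq, wordOf_support₂] at this
  · have h : ∀ w ∈ W, support₂ w ≠ ∅ → support₂ w = Finset.univ := fun w hw h0 =>
      by_contra fun h1 => h ⟨w, hw, h0, h1⟩
    have hle' : W ≤ Submodule.span (ZMod 2) {fun _ => (1 : ZMod 2)} := fun w hw => by
      rw [← wordOf_support₂ w, wordOf_mem_span_one]
      by_cases h0 : support₂ w = ∅
      · exact Or.inl h0
      · exact Or.inr (h w hw h0)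
    by_cases h1 : (fun _ => (1 : ZMod 2)) ∈ W
    · right; left
      exact le_antisymm hle' ((Submodule.span_singleton_le_iff_mem _ _).2 h1)
    · left
      rw [eq_bot_iff]
      intro w hw
      by_cases h0 : support₂ w = ∅
      · rw [← wordOf_support₂ w, h0, wordOf_empty]; exact Submodule.zero_mem _
      · have := h w hw h0
        rw [← wordOf_support₂ w, this, wordOf_univ] at hw
        exact absurd hw h1

/-- a small set is moved, modulo the code, by the stabiliser of an octad or a dodecad -/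
theorem not_mem_of_move {g : Equiv.Perm GolayPt} {t : Finset GolayPt} (ht : t.card ≤ 4)
    {y z : GolayPt} (hy : y ∈ t) (hz : z ∉ t) (e : g y = z)
    (h : t.card ≤ 3 ∨ ∃ x ∈ t, g x ∈ t) : symmDiff (g • t) t ∉ CodeSets := by
  intro hc
  have hz' : z ∈ g • t := e ▸ (apply_mem_smul_iff g t y).2 hy
  have h1 := card_symmDiff_add (g • t) t
  rw [card_smul] at h1
  have h2 : 0 < (symmDiff (g • t) t).card :=
    Finset.card_pos.2 ⟨z, Finset.mem_symmDiff.2 (Or.inl ⟨hz', hz⟩)⟩
  have h3 : (symmDiff (g • t) t).card < 8 := by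
    rcases h with h | ⟨x, hx, hx'⟩
    · omega
    · have : 0 < (g • t ∩ t).card :=
        Finset.card_pos.2 ⟨g x, Finset.mem_inter.2 ⟨(apply_mem_smul_iff g t x).2 hx, hx'⟩⟩
      omega
  have := card_of_mem_codeSets hc
  omega

theorem move_in {D t : Finset GolayPt} (hD : D ∈ octads ∨ D ∈ dodecads) (ht : t.card ≤ 4)
    (h : 2 ≤ (t ∩ D).card ∨ t.card ≤ 3 ∧ (t ∩ D).Nonempty) :
    ∃ g ∈ M24, g • D = D ∧ symmDiff (g • t) t ∉ CodeSets := by
  have hcard : 8 ≤ D.card := by
    rcases hD with hD | hD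
    · rw [(mem_octads_iff.1 hD).2]
    · rw [(mem_dodecads_iff.1 hD).2]; omega
  have tr : ∀ {k : ℕ}, k ≤ 5 → ∀ x y : Fin k → GolayPt, Function.Injective x →
      Function.Injective y → (∀ i, x i ∈ D) → (∀ i, y i ∈ D) →
      ∃ g ∈ M24, g • D = D ∧ ∀ i, g (x i) = y i := fun hk x y hx hy a b => by
    rcases hD with hD | hD
    · exact M24_trans_octad_flag_le hD hD hk x y hx hy a b
    · exact M24_trans_dodecad_flag_le hD hD hk x y hx hy a b
  obtain ⟨z, hz, hz'⟩ := exists_mem_not_mem (s := D) (t := t) (by omega)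
  rcases h with h | ⟨h, y, hy⟩
  · obtain ⟨x, hx, y, hy, hxy⟩ := Finset.one_lt_card.1 h
    rw [Finset.mem_inter] at hx hy
    obtain ⟨g, hg, e, e'⟩ := tr (k := 2) (by omega) ![x, y] ![x, z] (injective_vec2 hxy)
      (injective_vec2 fun e => hz' (e ▸ hx.1))
      (fun i => by fin_cases i; exacts [hx.2, hy.2]) (fun i => by fin_cases i; exacts [hx.2, hz])
    exact ⟨g, hg, e, not_mem_of_move ht hy.1 hz' (e' 1)
      (Or.inr ⟨x, hx.1, by rw [show g x = x from e' 0]; exact hx.1⟩)⟩
  · rw [Finset.mem_inter] at hy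
    obtain ⟨g, hg, e, e'⟩ := tr (k := 1) (by omega) ![y] ![z] (Function.injective_of_subsingleton _)
      (Function.injective_of_subsingleton _)
      (fun i => by fin_cases i; exact hy.2) (fun i => by fin_cases i; exact hz)
    exact ⟨g, hg, e, not_mem_of_move ht hy.1 hz' (e' 0) (Or.inl h)⟩

theorem move_dodecad {D t : Finset GolayPt} (hD : D ∈ dodecads) (ht : t.card ≤ 4)
    (h0 : t.Nonempty) : ∃ g ∈ M24, g • D = D ∧ symmDiff (g • t) t ∉ CodeSets := by
  have e : (t ∩ D).card + (t ∩ Dᶜ).card = t.card := by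
    rw [← Finset.sdiff_eq_inter_compl]; exact Finset.card_inter_add_card_sdiff t D
  have h1 := h0.card_pos
  by_cases h : 2 ≤ (t ∩ D).card ∨ t.card ≤ 3 ∧ (t ∩ D).Nonempty
  · exact move_in (Or.inr hD) ht h
  · obtain ⟨g, hg, e1, e2⟩ := move_in (Or.inr (compl_mem_dodecads hD)) ht (by
      rw [← Finset.card_pos] at h ⊢
      omega)
    rw [smul_compl, compl_inj_iff] at e1
    exact ⟨g, hg, e1, e2⟩

theorem move_octad {D t : Finset GolayPt} (hD : D ∈ octads) (ht : t.card ≤ 4)
    (h0 : t.Nonempty) : ∃ g ∈ M24, g • D = D ∧ symmDiff (g • t) t ∉ CodeSets := by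
  have key : ∀ t : Finset GolayPt, t.card ≤ 4 → t.Nonempty → (t.card ≤ 3 ∨ (t ∩ D).Nonempty) →
      ∃ g ∈ M24, g • D = D ∧ symmDiff (g • t) t ∉ CodeSets := by
    intro t ht h0 h
    by_cases hs : t ⊆ D
    · have h1 := h0.card_pos
      refine move_in (Or.inl hD) ht ?_
      rw [Finset.inter_eq_left.2 hs, ← Finset.card_pos]
      omega
    · obtain ⟨y, hy, hy'⟩ := Finset.not_subset.1 hs
      obtain ⟨z, hz⟩ := exists_not_mem_of_card (s := t ∪ D) (by
        have := Finset.card_union_le t D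
        rw [(mem_octads_iff.1 hD).2] at this; omega)
      rw [Finset.mem_union, not_or] at hz
      obtain ⟨g, hg, e⟩ := fixSet_octad_trans hD hy' hz.2
      rw [mem_fixSet] at hg
      refine ⟨g, hg.1, smul_eq_of_fix hg.2, not_mem_of_move ht hy hz.1 e ?_⟩
      rcases h with h | ⟨x, hx⟩
      · exact Or.inl h
      · rw [Finset.mem_inter] at hx
        exact Or.inr ⟨x, hx.1, by rw [hg.2 x hx.2]; exact hx.1⟩
  by_cases h : t.card ≤ 3 ∨ (t ∩ D).Nonempty
  · exact key t ht h0 h
  rw [not_or, Finset.not_nonempty_iff_eq_empty] at h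
  obtain ⟨x, hx⟩ : D.Nonempty := by rw [← Finset.card_pos, (mem_octads_iff.1 hD).2]; omega
  have hxt : x ∉ t := fun a => by
    have : x ∈ t ∩ D := Finset.mem_inter.2 ⟨a, hx⟩
    rw [h.2] at this; simp at this
  obtain ⟨o, ho, hs⟩ := exists_octad_superset (s := insert x t) (by
    rw [Finset.card_insert_of_notMem hxt]; omega)
  have hto : t ⊆ o := (Finset.subset_insert x t).trans hs
  have e := card_symmDiff_add o t
  rw [Finset.inter_eq_right.2 hto, (mem_octads_iff.1 ho).2] at e
  have hx' : x ∈ symmDiff o t :=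
    Finset.mem_symmDiff.2 (Or.inl ⟨hs (Finset.mem_insert_self _ _), hxt⟩)
  obtain ⟨g, hg, e1, e2⟩ := key (symmDiff o t) (by omega) ⟨x, hx'⟩
    (Or.inr ⟨x, Finset.mem_inter.2 ⟨hx', hx⟩⟩)
  refine ⟨g, hg, e1, fun hc => e2 ?_⟩
  have := symmDiff_mem_codeSets hc (symmDiff_mem_codeSets
    (smul_mem_codeSets hg (mem_octads_iff.1 ho).1) (mem_octads_iff.1 ho).1)
  rwa [smul_symmDiff, ← sd_id3]

theorem move_code {u s : Finset GolayPt} (hu : u ∈ CodeSets) (hs : s ∉ CodeSets) :
    ∃ g ∈ M24, g • u = u ∧ symmDiff (g • s) s ∉ CodeSets := by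
  obtain ⟨t, ht, hc⟩ := H55.Golay.exists_small s
  have t0 : t.Nonempty := by
    rw [Finset.nonempty_iff_ne_empty]
    rintro rfl
    exact hs (by rwa [sd_empty] at hc)
  suffices H : ∃ g ∈ M24, g • u = u ∧ symmDiff (g • t) t ∉ CodeSets by
    obtain ⟨g, hg, e1, e2⟩ := H
    refine ⟨g, hg, e1, fun h => e2 ?_⟩
    have := symmDiff_mem_codeSets h (symmDiff_mem_codeSets (smul_mem_codeSets hg hc) hc)
    rwa [smul_symmDiff, sd_id4] at this
  rcases card_of_mem_codeSets hu with e | e | e | e | e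
  · obtain ⟨g, hg, -, e2⟩ := move_octad oct0_mem ht t0
    exact ⟨g, hg, by rw [Finset.card_eq_zero.1 e, Finset.smul_finset_empty], e2⟩
  · exact move_octad (mem_octads_iff.2 ⟨hu, e⟩) ht t0
  · exact move_dodecad (mem_dodecads_iff.2 ⟨hu, e⟩) ht t0
  · obtain ⟨g, hg, e1, e2⟩ := move_octad (mem_octads_iff.2 ⟨compl_mem_codeSets hu, by
      rw [Finset.card_compl, card_golayPt, e]⟩) ht t0
    rw [smul_compl, compl_inj_iff] at e1
    exact ⟨g, hg, e1, e2⟩
  · obtain ⟨g, hg, -, e2⟩ := move_octad oct0_mem ht t0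
    exact ⟨g, hg, by
      rw [Finset.eq_univ_of_card u (by rw [e, card_golayPt]), Finset.smul_finset_univ], e2⟩

end H9.Gol
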